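import Mathlib
import Cfsg.Prelude.Def_OddOrderLocal
import Cfsg.Agent.Lib.Helper69.BG40.Defs
import Cfsg.Agent.Lib.Helper24.PRank
import Cfsg.Agent.Lib.Helper35.BG.Hall
import Cfsg.Agent.Lib.Helper67.BG.S1358Core

/-!
# S1440 package PKB (Bender–Glauberman front end)

The maximal subgroup `N` over `C_G(x)` (S1375): `D = M ∩ N` is a complement of `N_σ` in `N`, its
nilpotent subgroups are abelian (S1420 for `N`) and it has rank at most `2` (S1405 for `N`).
-/

set_option autoImplicit false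

namespace Cfsg.Agent.Lib.Helper71.BG40

open Cfsg Cfsg.Agent.Lib.Helper35.BG Cfsg.Agent.Lib.Helper67.BG Cfsg.Agent.Lib.Helper69.BG40

universe u

theorem pkB : Cfsg.Agent.Lib.Helper69.BG40.PKB.{u} := by
  intro G _ _ hG h1350 h1375 h1405 h1420 M hM p hp hpσ x hxσ hxF hxo hnc
  have hx1 : x ≠ 1 := by
    rintro rfl
    rw [orderOf_one] at hxo
    exact hp.one_lt.ne' hxo.symm
  obtain ⟨N, ⟨hN, hCN⟩, -, -, -, -, hc, -⟩ := h1375 M hM x hxσ hx1 hnc
  refine ⟨N, hN, hc, ?_⟩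
  obtain ⟨hHallN, -, -⟩ := h1350 N hN
  -- `D = M ∩ N` is a `σ(N)'`-group
  have hDσ : ∀ q : ℕ, q.Prime → q ∣ Nat.card ↥(M ⊓ N) → q ∉ sigma N := by
    intro q hq hqD hqσ
    have h1 : (sigmaCore N).relIndex N = Nat.card ↥(M ⊓ N) := relIndex_right_of_isComplIn hc
    exact hHallN.2.2 q hq hqσ (h1 ▸ hqD)
  refine ⟨hp, hpσ, hxσ, hxF, hxo, hnc, inf_le_inf le_rfl hCN, ?_, ?_⟩
  · intro B hBD hBnil
    exact (h1420 N hN (M ⊓ N) hc).1 B (hBD.trans inf_le_right) hBnil
      (fun q hq hqB => hDσ q hq (dvd_trans hqB (Subgroup.card_dvd_of_le hBD)))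
  · intro q hq A hAD hAe
    have hqF : Fact q.Prime := ⟨hq⟩
    by_cases hqσ : q ∈ sigma N
    · -- then `A` is trivial
      have hAp : IsPGroup q A := fun a => ⟨1, by
        rw [pow_one]
        exact Subtype.ext (hAe.2 a a.2)⟩
      obtain ⟨k, hk⟩ := IsPGroup.iff_card.mp hAp
      rcases Nat.eq_zero_or_pos k with h0 | hpos
      · rw [hk, h0, pow_zero]
        exact Nat.one_le_pow _ _ hq.pos
      · exfalso
        apply hDσ q hq _ hqσ
        refine dvd_trans ?_ (Subgroup.card_dvd_of_le hAD)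
        rw [hk]
        exact dvd_pow_self q hpos.ne'
    · obtain ⟨hα, -, hασ, -, -⟩ := h1405 N hN
      have hr : PRankLE q 2 N := pRankLE_two_of_not_mem_sigma N hα hασ hq hqσ
      rw [Cfsg.Agent.Lib.Helper24.pRankLE_subgroup_iff] at hr
      exact hr A (hAD.trans inf_le_right) (isMulCommutative_subgroup_iff.mp hAe.1) hAe.2

end Cfsg.Agent.Lib.Helper71.BG40
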