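import Mathlib
import Cfsg.Prelude.Def_OddOrderLocal
import Cfsg.Agent.Lib.Helper69.BG40.Defs
import Cfsg.Agent.Lib.Helper35.BG.Hall
import Cfsg.Agent.Lib.Helper47.BG.S1385Core
import Cfsg.Agent.Lib.Helper67.BG.Basics

/-!
# S1440 package PKEK (Bender–Glauberman front end)

`U = 1` is impossible when `M_σ` is abelian: then `K` is a complement of `M_σ` in `M`, so
`C_{M_σ}(K) ≤ (M_σ)' = 1` by S1426, against S1354.
-/

set_option autoImplicit false

namespace Cfsg.Agent.Lib.Helper71.BG40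

open Cfsg Cfsg.Agent.Lib.Helper69.BG40

universe u

/-- In a standard factorisation `M = K U M_σ` with `U = 1`, `K` is a complement of `M_σ` in `M`. -/
theorem isComplIn_kappa_of_bot {G : Type*} [Group G] [Finite G] {M K U : Subgroup G}
    (hKU : IsSigmaDecomposition M K U) (hU : U = ⊥) : IsComplIn K (sigmaCore M) M := by
  have hinf : K ⊓ sigmaCore M = ⊥ :=
    Cfsg.Agent.Lib.Helper47.BG.sigmaDecomposition_inf_sigmaCore M K U hKU
  have hc0 : IsComplIn (U ⊔ sigmaCore M) K M :=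
    Cfsg.Agent.Lib.Helper47.BG.sigmaDecomposition_complIn M K U hKU
  rw [hU, bot_sup_eq] at hc0
  refine ⟨hKU.hall.1, Cfsg.Agent.Lib.Helper67.BG.sigmaCore_le M, hinf, ?_⟩
  intro m hm
  obtain ⟨a, ha, b, hb, hab⟩ := hc0.2.2.2 m⁻¹ (M.inv_mem hm)
  refine ⟨b⁻¹, K.inv_mem hb, a⁻¹, (sigmaCore M).inv_mem ha, ?_⟩
  rw [← mul_inv_rev, ← hab, inv_inv]

theorem pkEK : Cfsg.Agent.Lib.Helper69.BG40.PKEK.{u} := by
  intro G _ _ hG h1350 h1354 h1426 M hM K U hKU hU hab
  have hcK : IsComplIn K (sigmaCore M) M := isComplIn_kappa_of_bot hKU hU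
  obtain ⟨hC, -, -⟩ := h1426 M hM K hcK
  have hder : ⁅sigmaCore M, sigmaCore M⁆ = ⊥ := by
    rw [eq_bot_iff, Subgroup.commutator_le]
    intro a ha b hb
    rw [Subgroup.mem_bot, commutatorElement_eq_one_iff_mul_comm]
    exact Cfsg.Agent.Lib.Helper35.BG.isMulCommutative_subgroup_iff.mp hab a ha b hb
  rw [hder] at hC
  exact (h1354 M hM K hKU.cyclic hKU.hall).1 (eq_bot_iff.mpr hC)

end Cfsg.Agent.Lib.Helper71.BG40
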