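import Mathlib
import Cfsg.Prelude.Def_OddOrderLocal
import Cfsg.Agent.Lib.Helper69.BG40.Defs

/-!
# S1440 package PKG2 (Bender–Glauberman front end)

The Sylow `p`-subgroup `P` of `M_σ` (`p ∈ σ(M)`) is a Sylow `p`-subgroup of `G`, since `M_σ` is a
Hall `σ(M)`-subgroup of `G` (S1350).
-/

set_option autoImplicit false

namespace Cfsg.Agent.Lib.Helper71.BG40

open Cfsg Cfsg.Agent.Lib.Helper69.BG40

universe u

theorem pkG2 : Cfsg.Agent.Lib.Helper69.BG40.PKG2.{u} := by
  intro G _ _ hG h1350 M hM p _ hpσ P Q hd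
  obtain ⟨-, hHallG, -⟩ := h1350 M hM
  have hp : p.Prime := Fact.out
  have hidx : ¬ p ∣ (sigmaCore M).index := hHallG.2 p hp hpσ
  obtain ⟨k, hk⟩ := IsPGroup.iff_card.mp hd.hPp
  have hQ : ¬ p ∣ Nat.card ↥Q := (Nat.Prime.coprime_iff_not_dvd hp).mp hd.hQp.symm
  have hG' : Nat.card G = p ^ k * (Nat.card ↥Q * (sigmaCore M).index) := by
    rw [← Subgroup.card_mul_index (sigmaCore M), ← hd.hcard, hk, mul_assoc]
  have hnd : ¬ p ∣ Nat.card ↥Q * (sigmaCore M).index := by
    intro h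
    rcases (Nat.Prime.dvd_mul hp).mp h with h | h
    · exact hQ h
    · exact hidx h
  have hfac : (Nat.card G).factorization p = k := by
    have h0 : Nat.card ↥Q * (sigmaCore M).index ≠ 0 := fun h0 => hnd (by rw [h0]; exact dvd_zero p)
    rw [hG', Nat.factorization_mul (pow_ne_zero _ hp.ne_zero) h0,
      Nat.Prime.factorization_pow hp, Finsupp.add_apply,
      Finsupp.single_eq_same, Nat.factorization_eq_zero_of_not_dvd hnd, add_zero]
  exact ⟨Sylow.ofCard P (by rw [hk, hfac]), Sylow.coe_ofCard _ _⟩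

end Cfsg.Agent.Lib.Helper71.BG40
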